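import Cfsg.Agent.H100.IF.Four
import Cfsg.Agent.H989.Fx.Cls

/-!
# S5719, orthogonal groups, `q` odd: CLAIM 0 (helper601)

`claim0_gen` : no involution with an eigenspace of dimension two is in `A`.
-/

set_option autoImplicit false

namespace Cfsg.Agent.H601.OTri

open QuadraticMap Matrix Module
open Cfsg.Agent.LieClassical.OrthCore Cfsg.Agent.LieClassical.OrthTrans Cfsg.Agent.LieClassical.OrthSimple
open Cfsg.Agent.H989.Gs.Gen
open Cfsg.Agent.UGT.U2.FOne.Orth (Four tl)
open Cfsg.Agent.H112.Row2.OrthExt (QU QU_apply polar_QU ext ext_left ext_right ext_siegel extE coe_extE exists_dec)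
open Cfsg.Agent.H209.Fxy (IF)
open Cfsg.Agent.H198.IF (Fix Neg mem_Fix mem_Neg nondeg_QU neg₂ HS rho_mem_of rho_fix)

variable {F V : Type*} [Field F] [AddCommGroup V] [Module F V] {Q : QuadraticForm F V}

section ext

variable {U W : Submodule F V} (h : IsCompl U W) (ho : ∀ u ∈ U, ∀ w ∈ W, polar Q u w = 0)

theorem extE_left (A : ↥(E (QU Q U))) (u : U) : ap (extE h ho A) (u : V) = (ap A u : U) := ext_left h A.1 u

theorem extE_right (A : ↥(E (QU Q U))) {w : V} (hw : w ∈ W) : ap (extE h ho A) w = w := ext_right h A.1 hw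

theorem extE_S (u w : U) (hu : Q (u : V) = 0) (hw : polar Q (u : V) w = 0) :
    extE h ho (S (QU Q U) u w) = S Q (u : V) w := by
  have hu' : QU Q U u = 0 := hu
  have hw' : polar (QU Q U) u w = 0 := by rw [polar_QU]; exact hw
  rw [S_eq hu' hw', S_eq hu hw]
  apply Subtype.ext
  exact ext_siegel h ho hu' hw' hu hw

theorem extE_comm {t : ↥(E Q)} {c d : F} (hU : ∀ u ∈ U, ap t u = c • u) (hW : ∀ w ∈ W, ap t w = d • w)
    (A : ↥(E (QU Q U))) : extE h ho A * t = t * extE h ho A := by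
  apply ext_ap
  intro v
  obtain ⟨u, w, rfl⟩ := exists_dec h v
  have hu : ap t (u : V) = c • (u : V) := hU u u.2
  have hw : ap t (w : V) = d • (w : V) := hW w w.2
  have hA : ap t ((ap A u : U) : V) = c • ((ap A u : U) : V) := hU _ (ap A u : U).2
  rw [ap_mul, ap_mul, ap_add, hu, hw, ap_add, ap_add, ap_smul, ap_smul, extE_left, extE_right h ho A w.2, ap_add, hA, hw]

end ext

/-- the step: for an involution `t` with a two-dimensional eigenspace `W`, `E (Q|U) ≤ π⁻¹ A`, `U` the other eigenspace -/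
theorem step_gen [Finite F] [FiniteDimensional F V] (h2 : (2 : F) ≠ 0) (hG : Good Q) (hN : 7 ≤ finrank F V)
    {T : Type*} [Group T] [Finite T] [IsSimpleGroup T] {A : Subgroup T} {Γ : Subgroup (MulAut T)} (h : IF A Γ)
    (hna : ∃ a b : T, a * b ≠ b * a) (π : ↥(E Q) →* T) (hπ : Function.Surjective π)
    (hk : ∀ g : ↥(E Q), π g = 1 → ∃ c : F, ∀ v, ap g v = c • v)
    {t : ↥(E Q)} (ht : t * t = 1) (htA : π t ∈ A)
    {U W : Submodule F V} (hUW : IsCompl U W) (ho : ∀ u ∈ U, ∀ w ∈ W, polar Q u w = 0) {c d : F} (hcd : c ≠ d)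
    (hU : ∀ u ∈ U, ap t u = c • u) (hW : ∀ w ∈ W, ap t w = d • w) (hfU : finrank F U + 2 = finrank F V)
    (hd : finrank F (H325.IF.Vm t) = 2 ∨ finrank F (H325.IF.Vm t) + 2 = finrank F V)
    {m : ℕ} (hm : 2 * (finrank F V - 2) ≤ 5 * m)
    (hmin : ∀ K : Subgroup ↥(E (QU Q U)), K ≠ ⊤ → Nat.card F ^ m ≤ K.index) :
    ∀ u ∈ U, ∀ w ∈ U, Q u = 0 → polar Q u w = 0 → S Q u w ∈ A.comap π := by
  have hfin : Finite V := Module.finite_of_finite F
  have hfE : Finite ↥(E Q) := Finite.of_injective (fun g : ↥(E Q) => fun v => ap g v) fun a b hab =>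
    ext_ap fun v => congrFun hab v
  have hfW : finrank F W = 2 := by
    have := Submodule.finrank_add_eq_of_isCompl hUW
    omega
  have hne1 : π t ≠ 1 := by
    intro h1
    obtain ⟨a, ha⟩ := hk t h1
    have hUb : U ≠ ⊥ := by rintro rfl; rw [finrank_bot] at hfU; omega
    have hWb : W ≠ ⊥ := by rintro rfl; rw [finrank_bot] at hfW; omega
    obtain ⟨u, hu, hu0⟩ := (Submodule.ne_bot_iff _).1 hUb
    obtain ⟨w, hw, hw0⟩ := (Submodule.ne_bot_iff _).1 hWb
    have e1 : c = a := by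
      have h3 := hU u hu
      rw [ha] at h3
      have h4 : (c - a) • u = 0 := by rw [sub_smul, h3, sub_self]
      exact sub_eq_zero.1 ((smul_eq_zero.1 h4).resolve_right hu0)
    have e2 : d = a := by
      have h3 := hW w hw
      rw [ha] at h3
      have h4 : (d - a) • w = 0 := by rw [sub_smul, h3, sub_self]
      exact sub_eq_zero.1 ((smul_eq_zero.1 h4).resolve_right hw0)
    exact hcd (e1.trans e2.symm)
  have hcl : (Subgroup.centralizer ({t} : Set ↥(E Q))).index ≤ Nat.card F ^ (2 * (finrank F V - 2)) := by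
    rcases hd with hd | hd
    · exact H989.Fx.cls_le h2 hG (by omega) ht hd
    · have h3 := H989.Fx.cls_le h2 hG (by omega) ht (k := finrank F V - 2) (by omega)
      have h4 : (finrank F V - 2) * (finrank F V - (finrank F V - 2)) = 2 * (finrank F V - 2) := by
        have : finrank F V - (finrank F V - 2) = 2 := by omega
        rw [this, mul_comm]
      rwa [h4] at h3
  have key : (A.comap π).comap (extE hUW ho) = ⊤ := by
    by_contra hne
    have h1 := hmin _ hne
    rw [Subgroup.index_comap] at h1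
    have h3 := H847.IF.lift_E2 h hna π hπ (t := t) htA hne1 (by rw [ht, map_one])
      (B := (extE hUW ho).range) (by
        rintro _ ⟨a, rfl⟩
        rw [extE_comm hUW ho hU hW])
    have h5 : (Nat.card F ^ m) ^ 5 ≤ ((A.comap π).relIndex (extE hUW ho).range) ^ 5 :=
      Nat.pow_le_pow_left h1 5
    have h6 := lt_of_le_of_lt h5 (lt_of_lt_of_le h3 hcl)
    rw [← pow_mul] at h6
    have h7 : 1 < Nat.card F := Finite.one_lt_card
    have h8 := (Nat.pow_lt_pow_iff_right h7).1 h6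
    omega
  intro u hu w hw hqu hp
  have h1 : S (QU Q U) ⟨u, hu⟩ ⟨w, hw⟩ ∈ (A.comap π).comap (extE hUW ho) := by
    rw [key]
    exact Subgroup.mem_top _
  rw [Subgroup.mem_comap, extE_S hUW ho ⟨u, hu⟩ ⟨w, hw⟩ hqu hp] at h1
  exact h1

/-- an element of `SL₂` of square `-1` -/
theorem exists_sq_neg [Finite F] (h2 : (2 : F) ≠ 0) : ∃ a : SpecialLinearGroup (Fin 2) F, a * a = neg₂ F := by
  classical
  have := Fintype.ofFinite F
  have hodd : Fintype.card F % 2 = 1 := by
    apply FiniteField.odd_card_of_char_ne_two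
    intro h3
    apply h2
    have h4 := CharP.cast_eq_zero F (ringChar F)
    rw [h3] at h4
    exact_mod_cast h4
  obtain ⟨x, y, hxy⟩ := FiniteField.exists_root_sum_quadratic (R := F) (f := Polynomial.X ^ 2)
    (g := Polynomial.X ^ 2 + Polynomial.C 1) (by simp) (by
      exact Polynomial.degree_X_pow_add_C (by norm_num) 1) hodd
  simp only [Polynomial.eval_pow, Polynomial.eval_X, Polynomial.eval_add, Polynomial.eval_C] at hxy
  refine ⟨⟨!![x, y; y, -x], by rw [Matrix.det_fin_two_of]; linear_combination -hxy⟩, ?_⟩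
  apply Subtype.ext
  change (!![x, y; y, -x] : Matrix (Fin 2) (Fin 2) F) * !![x, y; y, -x] = -1
  ext i j
  fin_cases i <;> fin_cases j <;> simp [Matrix.mul_apply, Fin.sum_univ_two] <;>
    first | linear_combination hxy | ring

theorem four_coe {U : Submodule F V} {e₁ f₁ e₂ f₂ : U} (h : Four (QU Q U) e₁ f₁ e₂ f₂) :
    Four Q (e₁ : V) f₁ e₂ f₂ where
  h1 := ⟨h.h1.left, h.h1.right, by rw [← polar_QU]; exact h.h1.pair⟩
  h2 := ⟨h.h2.left, h.h2.right, by rw [← polar_QU]; exact h.h2.pair⟩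
  ee := by rw [← polar_QU]; exact h.ee
  ef := by rw [← polar_QU]; exact h.ef
  fe := by rw [← polar_QU]; exact h.fe
  ff := by rw [← polar_QU]; exact h.ff

/-- the trivial hyperbolic system -/
theorem hs_zero : HS Q (![] : Fin 0 → V) ![] where
  qe i := i.elim0
  qf i := i.elim0
  ee i := i.elim0
  ff i := i.elim0
  ef i := i.elim0

/-- **CLAIM 0** -/
theorem claim0_gen [Finite F] [FiniteDimensional F V] (h2 : (2 : F) ≠ 0) (hG : Good Q) (hN : 7 ≤ finrank F V)
    {T : Type*} [Group T] [Finite T] [IsSimpleGroup T] {A : Subgroup T} {Γ : Subgroup (MulAut T)} (h : IF A Γ)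
    (hna : ∃ a b : T, a * b ≠ b * a) (π : ↥(E Q) →* T) (hπ : Function.Surjective π)
    (hk : ∀ g : ↥(E Q), π g = 1 → ∃ c : F, ∀ v, ap g v = c • v)
    {t : ↥(E Q)} (ht : t * t = 1) (htA : π t ∈ A)
    (hd : finrank F (H325.IF.Vm t) = 2 ∨ finrank F (H325.IF.Vm t) + 2 = finrank F V)
    {m : ℕ} (hm : 2 * (finrank F V - 2) ≤ 5 * m)
    (hmin : ∀ U : Submodule F V, finrank F U + 2 = finrank F V → Nondeg (QU Q U) →
      ∀ K : Subgroup ↥(E (QU Q U)), K ≠ ⊤ → Nat.card F ^ m ≤ K.index) : False := by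
  have hQ : Nondeg Q := hG.nondeg
  have h11 : (1 : F) ≠ -1 := by
    intro h3
    apply h2
    linear_combination h3
  have hVm : ∀ g : ↥(E Q), H325.IF.Vm g = Neg g := fun g => by
    ext v
    rw [H325.IF.mem_Vm, mem_Neg]
  -- the eigenspaces
  obtain ⟨U, W, c, d, hUW, ho, hcd, hU, hW, hfU⟩ : ∃ (U W : Submodule F V) (c d : F), IsCompl U W ∧
      (∀ u ∈ U, ∀ w ∈ W, polar Q u w = 0) ∧ c ≠ d ∧ (∀ u ∈ U, ap t u = c • u) ∧ (∀ w ∈ W, ap t w = d • w) ∧
      finrank F U + 2 = finrank F V := by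
    have hc := H198.IF.isCompl h2 ht
    have hsum := Submodule.finrank_add_eq_of_isCompl hc
    rcases hd with hd | hd
    · refine ⟨Fix t, Neg t, 1, -1, hc, H198.IF.orth h2, h11, fun u hu => ?_, fun w hw => ?_, ?_⟩
      · rw [mem_Fix.1 hu, one_smul]
      · rw [mem_Neg.1 hw, neg_one_smul]
      · rw [hVm] at hd
        omega
    · refine ⟨Neg t, Fix t, -1, 1, hc.symm, fun u hu w hw => ?_, h11.symm, fun u hu => ?_, fun w hw => ?_, ?_⟩
      · rw [polar_comm]
        exact H198.IF.orth h2 w hw u hu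
      · rw [mem_Neg.1 hu, neg_one_smul]
      · rw [mem_Fix.1 hw, one_smul]
      · rw [hVm] at hd
        omega
  have hstep := step_gen h2 hG hN h hna π hπ hk ht htA hUW ho hcd hU hW hfU hd hm
    (hmin U hfU (nondeg_QU hQ hUW ho))
  -- a quadruple in `U`
  have hQU : Nondeg (QU Q U) := nondeg_QU hQ hUW ho
  obtain ⟨x₁, y₁, H1⟩ := (hs_zero (Q := QU Q U)).exists_cons hQU (by omega)
  obtain ⟨x₂, y₂, H2⟩ := H1.exists_cons hQU (by omega)
  have hF' : Four (QU Q U) x₂ y₂ x₁ y₁ := H2.four (i := 0) (j := 1) (by decide)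
  have hF : Four Q (x₂ : V) y₂ x₁ y₁ := four_coe hF'
  obtain ⟨a, ha⟩ := exists_sq_neg (F := F) h2
  have m1 : hF.rhoE a ∈ A.comap π := by
    apply rho_mem_of hF
    · intro s
      exact hstep _ x₂.2 _ (U.smul_mem s y₁.2) hF.h1.left (by rw [polar_smul_right, hF.ef, smul_zero])
    · intro s
      refine hstep _ x₁.2 _ (U.smul_mem s y₂.2) hF.h2.left ?_
      rw [polar_smul_right, polar_comm Q, hF.fe, smul_zero]
  have m2 : hF.swap.rhoE a ∈ A.comap π := by
    apply rho_mem_of hF.swap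
    · intro s
      exact hstep _ x₂.2 _ (U.smul_mem s x₁.2) hF.h1.left (by rw [polar_smul_right, hF.ee, smul_zero])
    · intro s
      refine hstep _ y₁.2 _ (U.smul_mem s y₂.2) hF.h2.right ?_
      rw [polar_smul_right, polar_comm Q, hF.ff, smul_zero]
  obtain ⟨t', ht'⟩ : ∃ t', t' = hF.rhoE a * hF.swap.rhoE a := ⟨_, rfl⟩
  have ht'A : t' ∈ A.comap π := by rw [ht']; exact mul_mem m1 m2
  obtain ⟨ht2, hd2⟩ := H100.IF.t2_mul hF h2 hQ ha ha
  rw [← ht'] at ht2 hd2
  have hc' := H198.IF.isCompl h2 ht2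
  have hsum' := Submodule.finrank_add_eq_of_isCompl hc'
  have hfU' : finrank F (Fix t') + 2 = finrank F V := by omega
  have hstep' := step_gen h2 hG hN h hna π hπ hk ht2 ht'A hc' (H198.IF.orth h2) (c := 1) (d := -1) h11
    (fun u hu => by rw [mem_Fix.1 hu, one_smul]) (fun w hw => by rw [mem_Neg.1 hw, neg_one_smul]) hfU'
    (Or.inl (by rw [hVm]; exact hd2)) hm (hmin _ hfU' (nondeg_QU hQ hc' (H198.IF.orth h2)))
  -- `t'` is trivial on `W`, preserves `U`
  have hWfix : ∀ w ∈ W, ap t' w = w := by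
    intro w hw
    have k1 := ho _ x₂.2 w hw
    have k2 := ho _ y₂.2 w hw
    have k3 := ho _ x₁.2 w hw
    have k4 := ho _ y₁.2 w hw
    rw [ht', ap_mul, rho_fix hF.swap k1 k2 k4 k3, rho_fix hF k1 k2 k3 k4]
  have hperp : ∀ v, (∀ w ∈ W, polar Q v w = 0) → v ∈ U := by
    intro v hv
    obtain ⟨u, w, rfl⟩ := exists_dec hUW v
    have hw0 : (w : V) = 0 := by
      apply hQ
      intro y
      obtain ⟨u', w', rfl⟩ := exists_dec hUW y
      rw [polar_add_right, polar_comm Q, ho _ u'.2 _ w.2, zero_add]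
      have h3 := hv w' w'.2
      rw [polar_add_left, ho _ u.2 _ w'.2, zero_add] at h3
      exact h3
    rw [hw0, add_zero]
    exact u.2
  have hUst : ∀ u ∈ U, ap t' u ∈ U := by
    intro u hu
    apply hperp
    intro w hw
    have h3 := polar_ap t' u w
    rw [hWfix w hw, ho u hu w hw] at h3
    exact h3
  -- a hyperbolic pair in `U ⊓ Fix t'`
  have hY : Nondeg (QU Q (U ⊓ Fix t')) := by
    intro x hx
    apply Subtype.ext
    apply hQ
    intro y
    obtain ⟨u, w, rfl⟩ := exists_dec hUW y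
    have hx1 : (x : V) ∈ U := x.2.1
    have hx2 : (x : V) ∈ Fix t' := x.2.2
    have h3 : (u : V) = (2 : F)⁻¹ • ((u : V) + ap t' u) + (2 : F)⁻¹ • ((u : V) - ap t' u) := by
      rw [← smul_add]
      have : (u : V) + ap t' u + ((u : V) - ap t' u) = (2 : F) • (u : V) := by rw [two_smul]; abel
      rw [this, smul_smul, inv_mul_cancel₀ h2, one_smul]
    have htt : ap t' (ap t' (u : V)) = u := by rw [← ap_mul, ht2, ap_one]
    have h4 : (u : V) + ap t' u ∈ U ⊓ Fix t' := by
      refine ⟨U.add_mem u.2 (hUst u u.2), mem_Fix.2 ?_⟩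
      rw [ap_add, htt, add_comm]
    have h5 : (u : V) - ap t' u ∈ Neg t' := by
      rw [mem_Neg, ap_sub, htt, neg_sub]
    have h6 := hx ⟨_, h4⟩
    rw [polar_QU] at h6
    have h7 := H198.IF.orth h2 (x : V) hx2 _ h5
    rw [polar_add_right, ho _ hx1 _ w.2, add_zero, h3, polar_add_right, polar_smul_right, polar_smul_right, h7]
    change (2 : F)⁻¹ • polar Q (x : V) ((u : V) + ap t' u) + _ = 0
    rw [h6, smul_zero, add_zero]
  have hfY : 3 ≤ finrank F ↥(U ⊓ Fix t') := by
    have h3 := Submodule.finrank_sup_add_finrank_inf_eq U (Fix t')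
    have h4 := Submodule.finrank_le (U ⊔ Fix t')
    omega
  obtain ⟨x, y, hxy, -⟩ := (hs_zero (Q := QU Q (U ⊓ Fix t'))).exists_hyp hY (by omega)
  have hxy' : Hyp Q (x : V) y := ⟨hxy.left, hxy.right, by rw [← polar_QU]; exact hxy.pair⟩
  have htop : A.comap π = ⊤ := by
    refine H198.IF.end_two hG hxy' W U (Fix t') ?_ (fun w hw => mem_Fix.2 (hWfix w hw)) x.2.1 y.2.1 x.2.2 y.2.2
      (fun w hw => ho _ x.2.1 w hw) (fun w hw => ho _ y.2.1 w hw) _ (fun u hu w hw => hstep u hu w hw)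
      (fun u hu w hw => hstep' u hu w hw)
    rw [sup_comm]
    exact hUW.sup_eq_top
  apply h.ne_top
  rw [eq_top_iff]
  intro x _
  obtain ⟨g, rfl⟩ := hπ x
  have : g ∈ A.comap π := by rw [htop]; exact Subgroup.mem_top _
  exact this

end Cfsg.Agent.H601.OTri
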