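import Cfsg.Agent.H601.IF.Claim0
import Cfsg.Agent.H237.IF.MinFive
import Cfsg.Agent.H63.IF.MinIdx

/-!
# S5719, orthogonal groups, `q` odd: CLAIM 0, dimension 7 and at least 9 (helper601)
-/

set_option autoImplicit false

namespace Cfsg.Agent.H601.OTri

open QuadraticMap Matrix Module
open Cfsg.Agent.LieClassical.OrthCore Cfsg.Agent.LieClassical.OrthTrans Cfsg.Agent.LieClassical.OrthSimple
open Cfsg.Agent.H989.Gs.Gen
open Cfsg.Agent.H112.Row2.OrthExt (QU)
open Cfsg.Agent.H209.Fxy (IF)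

variable {F V : Type*} [Field F] [AddCommGroup V] [Module F V] {Q : QuadraticForm F V}

/-- **CLAIM 0**, dimension 7 -/
theorem claim0_seven [Finite F] [FiniteDimensional F V] (h2 : (2 : F) ≠ 0) (hG : Good Q) (hN : finrank F V = 7)
    {T : Type*} [Group T] [Finite T] [IsSimpleGroup T] {A : Subgroup T} {Γ : Subgroup (MulAut T)} (h : IF A Γ)
    (hna : ∃ a b : T, a * b ≠ b * a) (π : ↥(E Q) →* T) (hπ : Function.Surjective π)
    (hk : ∀ g : ↥(E Q), π g = 1 → ∃ c : F, ∀ v, ap g v = c • v)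
    {t : ↥(E Q)} (ht : t * t = 1) (htA : π t ∈ A)
    (hd : finrank F (H325.IF.Vm t) = 2 ∨ finrank F (H325.IF.Vm t) + 2 = finrank F V) : False :=
  claim0_gen h2 hG (by omega) h hna π hπ hk ht htA hd (m := 3) (by omega) fun U hU hQU K hK =>
    H237.IF.min_index_five h2 hQU (by omega) K hK

/-- **CLAIM 0**, dimension at least 9 -/
theorem claim0_nine [Finite F] [FiniteDimensional F V] (h2 : (2 : F) ≠ 0) (hG : Good Q) (hN : 9 ≤ finrank F V)
    {T : Type*} [Group T] [Finite T] [IsSimpleGroup T] {A : Subgroup T} {Γ : Subgroup (MulAut T)} (h : IF A Γ)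
    (hna : ∃ a b : T, a * b ≠ b * a) (π : ↥(E Q) →* T) (hπ : Function.Surjective π)
    (hk : ∀ g : ↥(E Q), π g = 1 → ∃ c : F, ∀ v, ap g v = c • v)
    {t : ↥(E Q)} (ht : t * t = 1) (htA : π t ∈ A)
    (hd : finrank F (H325.IF.Vm t) = 2 ∨ finrank F (H325.IF.Vm t) + 2 = finrank F V) : False :=
  claim0_gen h2 hG (by omega) h hna π hπ hk ht htA hd (m := finrank F V - 4) (by omega) fun U hU hQU K hK => by
    have h3 := H63.IF.min_index h2 hQU (by omega) K hK
    have h4 : finrank F U - 2 = finrank F V - 4 := by omega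
    rwa [h4] at h3

/-- **CLAIM 0**, dimension 7 and 9, in `E Q` itself -/
theorem claim0 [Finite F] [FiniteDimensional F V] (h2 : (2 : F) ≠ 0) (hG : Good Q) [IsSimpleGroup ↥(E Q)]
    (hN : finrank F V = 7 ∨ finrank F V = 9) {A : Subgroup ↥(E Q)} {Γ : Subgroup (MulAut ↥(E Q))} (h : IF A Γ)
    {t : ↥(E Q)} (ht : t * t = 1) (hk : finrank F (H198.IF.Neg t) = 2) (htA : t ∈ A) : False := by
  have hfin : Finite V := Module.finite_of_finite F
  have hfE : Finite ↥(E Q) := Finite.of_injective (fun g : ↥(E Q) => fun v => ap g v) fun a b hab =>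
    ext_ap fun v => congrFun hab v
  have hVm : H325.IF.Vm t = H198.IF.Neg t := by
    ext v
    rw [H325.IF.mem_Vm, H198.IF.mem_Neg]
  have hna : ∃ a b : ↥(E Q), a * b ≠ b * a := by
    by_contra hcon
    push Not at hcon
    have h3 := Cfsg.Agent.ClassicalGeometry.OrthSemi.commutator_E hG
    have h4 : commutator ↥(E Q) = ⊥ := by
      rw [commutator_eq_bot_iff_center_eq_top, eq_top_iff]
      intro a _
      exact Subgroup.mem_center_iff.2 fun b => hcon b a
    rw [h4] at h3
    exact bot_ne_top h3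
  have hk' : ∀ g : ↥(E Q), (MonoidHom.id ↥(E Q)) g = 1 → ∃ c : F, ∀ v, ap g v = c • v := by
    intro g hg
    refine ⟨1, fun v => ?_⟩
    have : g = 1 := hg
    rw [this, ap_one, one_smul]
  rcases hN with hN | hN
  · exact claim0_seven h2 hG hN h hna (MonoidHom.id _) Function.surjective_id hk' ht htA (Or.inl (by rw [hVm]; exact hk))
  · exact claim0_nine h2 hG (by omega) h hna (MonoidHom.id _) Function.surjective_id hk' ht htA
      (Or.inl (by rw [hVm]; exact hk))

end Cfsg.Agent.H601.OTri
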